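import Cfsg.Agent.Lib.Helper11.P6a.K0

set_option autoImplicit false
set_option maxRecDepth 100000

namespace Cfsg.Agent.Lib.Helper11.P6a

theorem chkAll : ∀ j < 133, blk fc sc rt.get INV isH j = true :=
  guardB_spec (D := 8) (allR_join b0 b1 (by norm_num)) (by norm_num)

theorem clAll : ∀ jb < 175, cblk fc nc cc (256 * 133) 5586 497323236409786642155382248146820840100456150797347717440463976893159497012533375533056 gens jb = true :=
  guardB_spec (D := 8) (allR_join c0 c1 (by norm_num)) (by norm_num)

theorem hN0 : getN nc 0 = 0 := by decide +kernel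


end Cfsg.Agent.Lib.Helper11.P6a
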